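import Cfsg.Agent.Blocks.Cyclic.Correspondent
import Cfsg.Agent.Blocks.SingleBlock.Criterion

/-!
# Blocks with cyclic defect group against the Frobenius group of order `|P| e`
-/

set_option autoImplicit false
open scoped MonoidAlgebra ComplexConjugate Classical
open Cfsg CfsgLib CfsgLib.Blocks CfsgLib.Blocks.HeightZero CfsgLib.Blocks.Contrib
open CfsgLib.Blocks.AbelianFree CfsgLib.Blocks.AbelianFrobenius

namespace CfsgLib.Blocks.Cyclic

universe u v

variable {F : Type v} [Group F] [Fintype F] {p : ℕ} [Fact p.Prime]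

/-- A `p`-subgroup of small index is the normal Sylow subgroup. -/
theorem exists_sylow_normal {Q : Subgroup F} {e : ℕ} (hQ : IsPGroup p Q) (he0 : 0 < e) (he : e < p)
    (hF : Nat.card F = Nat.card Q * e) :
    (∃ S : Sylow p F, (S : Subgroup F) = Q) ∧ Q.Normal ∧ Q.index = e := by
  have hp : p.Prime := Fact.out
  have hidx : Q.index = e := by
    have := Q.card_mul_index
    rw [hF] at this
    exact mul_left_cancel₀ Nat.card_pos.ne' this
  obtain ⟨S, hS⟩ := hQ.exists_le_sylow
  have hSQ : (S : Subgroup F) = Q := by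
    refine (Subgroup.eq_of_le_of_card_ge hS ?_).symm
    obtain ⟨n, hn⟩ := IsPGroup.iff_card.1 hQ
    rw [S.card_eq_multiplicity, hF, Nat.factorization_mul Nat.card_pos.ne' he0.ne', Finsupp.add_apply,
      hn, Nat.factorization_pow, Finsupp.smul_apply, hp.factorization_self,
      Nat.factorization_eq_zero_of_not_dvd (Nat.not_dvd_of_pos_of_lt he0 he), smul_eq_mul, mul_one,
      add_zero]
  refine ⟨⟨S, hSQ⟩, ?_, hidx⟩
  have hdvd : Nat.card (Sylow p F) ∣ e := by
    rw [← hidx, ← hSQ]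
    exact S.card_dvd_index
  have hone : Nat.card (Sylow p F) = 1 :=
    Nat.ModEq.eq_of_lt_of_lt (card_sylow_modEq_one p F)
      ((Nat.le_of_dvd he0 hdvd).trans_lt he) hp.one_lt
  haveI : Subsingleton (Sylow p F) := (Nat.card_eq_one_iff_unique.1 hone).1
  exact hSQ ▸ Sylow.normal_of_subsingleton S

variable {M : Ideal AlgInt} [M.IsMaximal] [CharP (kres M) p] {c : Set (IrrCharacter F)}
  {Q : Subgroup F} {g : MonoidAlgebra (kres M) F}

/-- In a self-centralizing abelian subgroup the scalar is the value. -/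
theorem pval_eq_apply (h : Setting p M c Q g) {S : Subgroup F} (hS : S ≤ Q) (hc : cn S ≤ Q)
    {v : F} (φ : F → ℂ) : pval p Q g S v φ = φ v := by
  obtain ⟨θ, -, hrep⟩ := h.exists_rep hS
  have hcard : Nat.card Q = Nat.card (cn S) :=
    congrArg (fun K : Subgroup F => Nat.card K) (le_antisymm (h.le_cn hS) hc)
  haveI : IsMulCommutative (cn S) :=
    ⟨⟨fun a b => Subtype.ext (h.comm a (hc a.2) b (hc b.2))⟩⟩
  rw [pval, hrep, Finset.sum_eq_single (1 : cn S), Chars.map_one_eq_one_of_isMulCommutative,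
    map_one, mul_one, Subgroup.coe_one, mul_one, hcard,
    div_self (Nat.cast_ne_zero.2 Nat.card_pos.ne'), one_mul]
  · intro s hs hs1
    refine absurd ?_ hs1
    obtain ⟨n, hn⟩ := h.orderOf_coe_pow ⟨(s : F), hc s.2⟩
    have hreg := mem_regSet.1 hs
    rw [IsPRegular, ← Subgroup.orderOf_coe, hn] at hreg
    rcases Nat.eq_zero_or_pos n with h0 | h0
    · rw [h0, pow_zero, orderOf_eq_one_iff] at hn
      exact Subtype.ext hn
    · exact absurd (dvd_pow_self p h0.ne') hreg
  · exact fun h1 => absurd (mem_regSet.2 h.isPRegular_one) h1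

/-- The signs are trivial. -/
theorem eps_eq_one (h : Setting p M c Q g)
    (hsc : ∀ R : Subgroup F, R ≤ Q → R ≠ ⊥ → cn R ≤ Q) :
    ∀ {R : Subgroup F}, R ≤ Q → R ≠ ⊥ → eps p Q g R = 1 := by
  intro R
  induction R using (wellFounded_gt (α := Subgroup F)).induction with
  | _ R ih =>
    intro hR hR1
    have hc := hsc R hR hR1
    haveI : IsMulCommutative (cn R) :=
      ⟨⟨fun a b => Subtype.ext (h.comm a (hc a.2) b (hc b.2))⟩⟩
    rw [eps_eq, if_pos]
    intro η _
    obtain ⟨μ, hμ⟩ := exists_centralHom η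
    let ι : Q →* Subgroup.center (cn R) :=
      { toFun := fun v => ⟨⟨(v : F), h.le_cn hR v.2⟩,
          Subgroup.mem_center_iff.2 fun z => Subtype.ext (h.comm z (hc z.2) v v.2)⟩
        map_one' := rfl
        map_mul' := fun a b => rfl }
    refine ⟨μ.comp ι, fun v => ?_⟩
    have hval : extFun (cn R) (η : cn R → ℂ) (v : F) = ((μ.comp ι) v : ℂ) := by
      rw [extFun_of_mem _ (h.le_cn hR v.2), MonoidHom.comp_apply,
        ← mul_one ((μ (ι v) : ℂˣ) : ℂ), ← Chars.map_one_eq_one_of_isMulCommutative η, ← hμ, mul_one]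
      rfl
    refine ⟨fun _ => ?_, fun hv => ?_⟩
    · rw [pval_eq_apply h hR hc, hval]
    · have hle : R < R ⊔ Subgroup.zpowers (v : F) := lt_of_le_of_ne le_sup_left fun e =>
        hv (e ▸ Subgroup.mem_sup_right (Subgroup.mem_zpowers _))
      have hS : R ⊔ Subgroup.zpowers (v : F) ≤ Q := sup_le hR (Subgroup.zpowers_le.2 v.2)
      have hS1 : R ⊔ Subgroup.zpowers (v : F) ≠ ⊥ := fun e => hR1 (eq_bot_iff.2 (e ▸ hle.le))
      rw [pval_eq_apply h hS (hsc _ hS hS1), ih _ hle hS hS1, hval]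

/-- The scalars are the values. -/
theorem gval_eq_apply (h : Setting p M c Q g)
    (hsc : ∀ R : Subgroup F, R ≤ Q → R ≠ ⊥ → cn R ≤ Q) (η : IrrCharacter F) {v : Q} (hv : v ≠ 1) :
    gval p Q g η v = (η : F → ℂ) v := by
  have h1 := h.zpowers_le v
  have h2 := Setting.zpowers_ne_bot hv
  rw [gval, if_neg hv, eps_eq_one h hsc h1 h2, one_mul, pval_eq_apply h h1 (hsc _ h1 h2)]

omit [M.IsMaximal] [CharP (kres M) p] in
/-- A character with constant values `±1` on `Q`, not trivial there, has large degree. -/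
theorem le_charDegree_of_const (η : IrrCharacter F) {r : ℤ} (hr : r = 1 ∨ r = -1)
    (hv : ∀ v : Q, v ≠ 1 → (η : F → ℂ) v = -(r : ℂ))
    (hne : ∃ x ∈ Q, (η : F → ℂ) x ≠ (η : F → ℂ) 1) :
    Nat.card Q ≤ charDegree (η : F → ℂ) + 1 := by
  haveI := Fintype.ofFinite Q
  obtain ⟨k, hk⟩ := Chars.exists_nat_classInner'
    (Chars.isCharacter_restrict (Chars.isCharacter_coe η) Q) Chars.isCharacter_one
  have hQ : (Nat.card Q : ℂ) ≠ 0 := Nat.cast_ne_zero.2 Nat.card_pos.ne'
  have hsum : ∑ v : Q, (η : F → ℂ) v = (Nat.card Q : ℂ) * k := by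
    rw [← hk]
    simp only [classInner, Pi.one_apply, map_one, mul_one]
    field_simp
  rw [← Finset.add_sum_erase _ _ (Finset.mem_univ (1 : Q)),
    Finset.sum_congr rfl fun v hv' => hv v (Finset.ne_of_mem_erase hv'), Finset.sum_const,
    Finset.card_erase_of_mem (Finset.mem_univ _), Finset.card_univ, ← Nat.card_eq_fintype_card,
    nsmul_eq_mul, Nat.cast_sub (Nat.one_le_iff_ne_zero.2 Nat.card_pos.ne'), Subgroup.coe_one,
    ← Chars.coe_charDegree] at hsum
  push_cast at hsum
  have e : (charDegree (η : F → ℂ) : ℤ) - ((Nat.card Q : ℤ) - 1) * r = (Nat.card Q : ℤ) * k := by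
    have h2 : (charDegree (η : F → ℂ) : ℂ) - ((Nat.card Q : ℂ) - 1) * r = (Nat.card Q : ℂ) * k := by
      linear_combination hsum
    exact_mod_cast h2
  have hpos : 0 < charDegree (η : F → ℂ) := Chars.charDegree_pos η
  rcases hr with rfl | rfl
  · nlinarith
  · by_contra hlt
    push Not at hlt
    have hk1 : (k : ℤ) = 1 := by nlinarith
    rw [hk1] at e
    obtain ⟨x, hx, hxne⟩ := hne
    refine hxne ?_
    by_cases hx1 : (⟨x, hx⟩ : Q) = 1
    · rw [show x = 1 from congrArg Subtype.val hx1]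
    · rw [show (η : F → ℂ) x = _ from hv ⟨x, hx⟩ hx1, ← Chars.coe_charDegree]
      rw [show charDegree (η : F → ℂ) = 1 by omega]
      norm_num

/-- The squares of the degrees of nontrivial characters. -/
theorem sum_sq_add_one_le (T : Finset (IrrCharacter F))
    (hT : ∀ η ∈ T, ∃ x : F, (η : F → ℂ) x ≠ (η : F → ℂ) 1) :
    ∑ η ∈ T, charDegree (η : F → ℂ) ^ 2 + 1 ≤ Nat.card F := by
  set o : IrrCharacter F := ⟨_, Chars.isIrrCharacter_one⟩
  have ho : o ∉ T := fun h => by obtain ⟨x, hx⟩ := hT o h; exact hx rfl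
  have hd : charDegree (o : F → ℂ) = 1 := (Chars.charDegree_eq_one_iff o).2 rfl
  rw [← Chars.sum_charDegree_sq (G := F)]
  refine le_of_eq_of_le ?_ (Finset.sum_le_sum_of_subset (Finset.subset_univ (insert o T)))
  rw [Finset.sum_insert ho, hd, one_pow, add_comm]

/-- Isometry with the Frobenius group, with one sign on the characters not trivial on `Q`. -/
theorem exists_isometry_frobenius {G : Type u} [Group G] [Fintype G] {B : Set (IrrCharacter G)}
    {P : Subgroup G} {f : MonoidAlgebra (kres M) G} (hS : Setting p M B P f)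
    (hl : blockRank p B = Nat.card (aut P f)) (hP1 : P ≠ ⊥) (hcyc : IsCyclic P) {e : ℕ}
    (he : Nat.card (aut P f) = e) (hdvd : e ∣ p - 1) (hF : Nat.card F = Nat.card P * e)
    (hQ : IsCyclic Q) (hQcard : Nat.card Q = Nat.card P)
    (hQC : Subgroup.centralizer (Q : Set F) = Q) :
    ∃ (I : IrrCharacter F → IrrCharacter G) (ε : IrrCharacter F → ℤ),
      IsPerfectIsometry p M (Set.univ : Set (IrrCharacter F)) B I ε ∧
        ∀ η η' : IrrCharacter F, (∃ x ∈ Q, (η : F → ℂ) x ≠ (η : F → ℂ) 1) →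
          (∃ x ∈ Q, (η' : F → ℂ) x ≠ (η' : F → ℂ) 1) → ε η = ε η' := by
  have hp : p.Prime := Fact.out
  have he0 : 0 < e := he ▸ Nat.card_pos
  have hep : e < p := by
    have h1 := Nat.le_of_dvd (Nat.sub_pos_of_lt hp.one_lt) hdvd
    have := hp.one_lt
    omega
  obtain ⟨d, hd⟩ := IsPGroup.iff_card.1 hS.isPGroup
  have hQp : IsPGroup p Q := IsPGroup.of_card (n := d) (hQcard.trans hd)
  obtain ⟨⟨Sy, hSy⟩, hQn, hidx⟩ := exists_sylow_normal hQp he0 hep (by rw [hF, hQcard])
  haveI := hQn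
  have hM := hS.hM
  have huniv : principalBlock M F = Set.univ :=
    Set.eq_univ_of_forall (SingleBlock.mem_principalBlock_of_normal hM hQp hQC.le)
  have hBF : IsPBlock M (Set.univ : Set (IrrCharacter F)) :=
    huniv ▸ isPBlock_principalBlock_of_finite F
  have hDF : IsDefectGroup p M (Set.univ : Set (IrrCharacter F)) Q :=
    huniv ▸ (isDefectGroup_principalBlock_iff Q).2 ⟨Sy, hSy⟩
  have hQ1 : Q ≠ ⊥ := fun h => hP1 (Subgroup.card_eq_one.1 (by rw [← hQcard, h, Subgroup.card_bot]))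
  obtain ⟨g, hg⟩ := KleinFour.exists_maxPair hBF hDF
  have hgI : IsBlockIdem (cn Q) g := by
    have h := hg.1.1.2.2
    rwa [top_inf_eq] at h
  obtain ⟨hS', hl'⟩ := setting_of_isBlockIdem hM hBF hDF hQ1 hQ hgI hg.1.2
  obtain ⟨cF, hcF, hcg⟩ := exists_subEl_eq (M := M) hgI
  have hstab : pairStab ⊤ Q g = ⊤ := by
    refine eq_top_iff.2 fun t _ => ?_
    have hn : t ∈ Subgroup.normalizer (Q : Set F) := by
      rw [Subgroup.normalizer_eq_top]; trivial
    have hall : ∀ χ, χ ∈ cF := fun χ => by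
      obtain ⟨χ₀, hχ₀⟩ := nonempty_of_isPBlock hcF
      have hpC : IsPGroup p (⊤ : Subgroup (cn Q)) :=
        (hQp.to_le hQC.le).to_subgroup ⊤
      have h1 : ∀ ξ, ξ ∈ principalBlock M (cn Q) :=
        SingleBlock.mem_principalBlock_of_normal hM hpC le_top
      have h2 := isPBlock_principalBlock_of_finite (M := M) (cn Q)
      rw [eq_blockOf_of_mem hcF hχ₀, ← eq_blockOf_of_mem h2 (h1 χ₀)]
      exact h1 χ
    have h3 := (stabilizesBlock_iff hcF t).1
      ((stabilizesBlock_iff_forall hn).2 fun θ _ θ' _ => hall θ')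
    rw [hcg] at h3
    exact mem_pairStab.2 ⟨⟨trivial, hn⟩, h3.2⟩
  have hsc : ∀ R : Subgroup F, R ≤ Q → R ≠ ⊥ → cn R ≤ Q := by
    intro R hR hR1 t ht
    obtain ⟨⟨x, hx⟩, hx1⟩ := Subgroup.ne_bot_iff_exists_ne_one.mp hR1
    have := hS'.free t (by rw [hstab]; trivial) x (hR hx) (fun e => hx1 (Subtype.ext e)) (by
      rw [← Subgroup.mem_centralizer_iff.mp ht x hx, mul_inv_cancel_right])
    exact hQC.le this
  have he' : Nat.card (aut Q g) = e := by
    rw [natCard_aut, hstab, Subgroup.relIndex_top_right]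
    show (Subgroup.centralizer (Q : Set F)).index = e
    rw [hQC, hidx]
  haveI := hcyc
  haveI := hQ
  let φ : Q ≃* P := mulEquivOfCyclicCardEq hQcard
  have hAA : (aut Q g).map (MulAut.congr φ).toMonoidHom = aut P f := by
    have hc1 : Nat.card ((aut Q g).map (MulAut.congr φ).toMonoidHom) = e := by
      rw [Subgroup.card_map_of_injective (MulAut.congr φ).injective, he']
    by_cases he1 : e = 1
    · rw [Subgroup.eq_bot_of_card_eq _ (hc1.trans he1), Subgroup.eq_bot_of_card_eq _ (he.trans he1)]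
    have hp2 : p ≠ 2 := by
      rintro rfl
      exact he1 (by omega)
    haveI : IsCyclic (ZMod (Nat.card P))ˣ := by
      rw [hd]; exact ZMod.isCyclic_units_of_prime_pow p hp hp2 d
    have hcA : IsCyclic (MulAut P) :=
      isCyclic_of_surjective (IsCyclic.mulAutMulEquiv P).symm (MulEquiv.surjective _)
    haveI : Finite (MulAut P) :=
      Finite.of_injective (fun a : MulAut P => (a : P → P)) DFunLike.coe_injective
    haveI := Fintype.ofFinite (MulAut P)
    exact eq_of_le_cyclic (isCyclic_of_surjective Subgroup.topEquiv.symm (MulEquiv.surjective _))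
      le_top le_top (hc1.trans he.symm)
  have hφ : ∀ a, a ∈ aut Q g ↔ MulAut.congr φ a ∈ aut P f := fun a => by
    rw [← hAA, Subgroup.mem_map_equiv, MulEquiv.symm_apply_apply]
  obtain ⟨X, r, δ, ζ, hN⟩ := exists_normalForm hS hP1 hl
  obtain ⟨X', r', δ', ζ', hN'⟩ := exists_normalForm hS' hQ1 hl'
  obtain ⟨I, ε, hI, hεζ⟩ := exists_perfectIsometry hS hS' hN hN' φ hφ
  refine ⟨I, ε, hI, fun η η' hη hη' => ?_⟩
  haveI := hS'.finite_orb
  have hme := hS'.card_orb
  rw [he'] at hme
  have hcardF : Nat.card F = Nat.card Q * e := by rw [hF, hQcard]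
  have hconst : ∀ ξ ∈ X', ∀ v : Q, v ≠ 1 → (ξ : F → ℂ) v = -(r' ξ : ℂ) := fun ξ hξ v hv => by
    rw [← gval_eq_apply hS' hsc ξ hv, hN'.gval_X ξ hξ v hv]
  rcases Nat.lt_or_ge (Nat.card (Orb (aut Q g))) 2 with hm | hm
  · haveI : Subsingleton (Orb (aut Q g)) := Finite.card_le_one_iff_subsingleton.1 (by omega)
    haveI := hS'.isMulComm
    haveI := hS'.finite_linChar
    haveI := Fintype.ofFinite (Q →* ℂˣ)
    haveI := Fintype.ofFinite (Orb (aut Q g))
    have hge : ∀ ξ : IrrCharacter F, (∃ x ∈ Q, (ξ : F → ℂ) x ≠ (ξ : F → ℂ) 1) →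
        Nat.card Q ≤ charDegree (ξ : F → ℂ) + 1 := by
      intro ξ hξ
      rcases (hN'.mem_iff ξ).1 trivial with h | ⟨i, rfl⟩
      · exact le_charDegree_of_const ξ (hN'.sign ξ h) (hconst ξ h) hξ
      · refine le_charDegree_of_const _ hN'.sign₀ (fun v hv => ?_) hξ
        have h1 := sum_orbSum hS'.fpf hv
        rw [Finset.sum_eq_single i (fun j _ hj => absurd (Subsingleton.elim j i) hj)
          (fun h => absurd (Finset.mem_univ _) h)] at h1
        rw [← gval_eq_apply hS' hsc _ hv, hN'.gval_exc i v hv, h1]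
        ring
    by_contra hne
    have hne' : η ≠ η' := fun e => hne (e ▸ rfl)
    have h1 := hge η hη
    have h2 := hge η' hη'
    have h3 := sum_sq_add_one_le {η, η'} (fun ξ hξ => by
      rcases Finset.mem_insert.1 hξ with rfl | hξ
      · exact hη.imp fun x hx => hx.2
      · rw [Finset.mem_singleton.1 hξ]; exact hη'.imp fun x hx => hx.2)
    rw [Finset.sum_pair hne', hcardF] at h3
    have hm' : Nat.card (Orb (aut Q g)) * e ≤ e := by
      calc Nat.card (Orb (aut Q g)) * e ≤ 1 * e := Nat.mul_le_mul_right _ (by omega)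
        _ = e := one_mul e
    have hQ2 : 2 ≤ Nat.card Q := (Subgroup.one_lt_card_iff_ne_bot Q).2 hQ1
    have hQe : Nat.card Q = e + 1 := by
      have : Nat.card (Orb (aut Q g)) = 1 := by
        rcases Nat.eq_zero_or_pos (Nat.card (Orb (aut Q g))) with h0 | h0
        · rw [h0, zero_mul] at hme; omega
        · omega
      rw [← hme, this, one_mul]
    rw [hQe] at h1 h2 h3
    nlinarith
  · have hmem : ∀ ξ : IrrCharacter F, (∃ x ∈ Q, (ξ : F → ℂ) x ≠ (ξ : F → ℂ) 1) →
        ε ξ = δ * δ' := by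
      intro ξ hξ
      rcases (hN'.mem_iff ξ).1 trivial with h | ⟨i, rfl⟩
      · have h1 := le_charDegree_of_const ξ (hN'.sign ξ h) (hconst ξ h) hξ
        have h3 := sum_sq_add_one_le {ξ} (fun z hz => by
          rw [Finset.mem_singleton.1 hz]; exact hξ.imp fun x hx => hx.2)
        rw [Finset.sum_singleton, hcardF] at h3
        have h4 : 2 * e + 1 ≤ Nat.card Q := by
          rw [← hme]; exact Nat.add_le_add_right (Nat.mul_le_mul_right _ hm) 1
        nlinarith
      · exact hεζ i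
    rw [hmem η hη, hmem η' hη']

end CfsgLib.Blocks.Cyclic
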