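import Cfsg.Agent.Blocks.Cyclic.Main
import Cfsg.Agent.Chars.PConjugate.Galois
import Cfsg.Agent.Blocks.Star.Nilpotent

/-!
# `p`-conjugation in a block with defect group of prime order

The twists by exponents congruent to `1` modulo the `p'`-part of the order fix the nonexceptional
characters and are transitive on the exceptional ones.
-/

set_option autoImplicit false
open scoped MonoidAlgebra ComplexConjugate Classical
open Cfsg CfsgLib CfsgLib.Blocks CfsgLib.Blocks.HeightZero CfsgLib.Blocks.Contrib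
open CfsgLib.Blocks.AbelianFree CfsgLib.Blocks.AbelianFrobenius
open CfsgLib.PConjugate (twist)

namespace CfsgLib.Blocks.Cyclic

universe u

variable {G : Type u} [Group G] [Fintype G] {p : ℕ} [Fact p.Prime] {M : Ideal AlgInt} [M.IsMaximal]
  [CharP (kres M) p] {B : Set (IrrCharacter G)} {P : Subgroup G} {f : MonoidAlgebra (kres M) G}

/-- A combination vanishing off the regular elements' scalars and on them is zero. -/
theorem coeff_eq_zero_of_comb (h : Setting p M B P f) (a : IrrCharacter G → ℂ)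
    (hB : ∀ χ, χ ∉ B → a χ = 0)
    (hg : ∀ v : P, v ≠ 1 → ∑ χ ∈ B.toFinite.toFinset, a χ * gval p P f χ v = 0)
    (hr : ∀ g : G, IsPRegular p g → ∑ χ ∈ B.toFinite.toFinset, a χ * (χ : G → ℂ) g = 0) :
    ∀ χ, a χ = 0 := by
  have h0 : ∑ χ : IrrCharacter G, a χ • (χ : G → ℂ) = 0 := by
    funext g
    rw [Finset.sum_apply, ← Finset.sum_subset (Finset.subset_univ B.toFinite.toFinset) fun χ _ hχ => by
      rw [hB χ fun h' => hχ ((Set.Finite.mem_toFinset _).2 h'), zero_smul, Pi.zero_apply]]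
    simp only [Pi.smul_apply, smul_eq_mul, Pi.zero_apply]
    by_cases hgr : IsPRegular p g
    · exact hr g hgr
    · exact comb_singular_eq_zero h a hg hgr
  exact Fintype.linearIndependent_iff.1 (Chars.linearIndependent_irr G) a h0

/-- Exponents congruent to `1` modulo `m` fix the regular values. -/
theorem twist_apply_regular {m : ℕ} (hm : m ∣ Nat.card G)
    (hmreg : ∀ g : G, IsPRegular p g → orderOf g ∣ m) (k : PConjugate.expo G hm)
    (χ : IrrCharacter G) {g : G} (hg : IsPRegular p g) :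
    (twist k.1 χ : G → ℂ) g = (χ : G → ℂ) g := by
  have h1 := ((PConjugate.mem_expo_iff k.1).1 k.2).of_dvd (hmreg g hg)
  rw [PConjugate.twist_apply, pow_eq_pow_iff_modEq.2 h1, pow_one]

/-- The twists stay in the block. -/
theorem twist_mem (hM : IsPModular p M) (hB : IsPBlock M B) {m : ℕ} (hm : m ∣ Nat.card G)
    (hmreg : ∀ g : G, IsPRegular p g → orderOf g ∣ m) (k : PConjugate.expo G hm)
    {χ : IrrCharacter G} (hχ : χ ∈ B) : twist k.1 χ ∈ B := by
  by_contra hn
  have h1 := regPair_eq_zero_of_ne_block hM hB hχ hn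
  have h2 : regPair p (χ : G → ℂ) (χ : G → ℂ) = 0 := by
    rw [← h1, regPair_eq_sum, regPair_eq_sum]
    refine Finset.sum_congr rfl fun s _ => ?_
    by_cases hsr : p ∣ orderOf s
    · simp [IsPRegular, hsr]
    · simp [IsPRegular, hsr, twist_apply_regular hm hmreg k χ (show IsPRegular p s from hsr)]
  have h4 := regPair_self_eq_sum (p := p) χ
  rw [h2] at h4
  simp only [Complex.mul_conj] at h4
  replace h2 := h4.symm
  rw [← Complex.ofReal_sum, Complex.ofReal_eq_zero] at h2
  have h3 := (Finset.sum_eq_zero_iff_of_nonneg fun s _ => Complex.normSq_nonneg _).1 h2 1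
    (mem_regSet.2 (by simp [IsPRegular, hM.1.ne_one]))
  exact Chars.map_one_ne_zero χ (Complex.normSq_eq_zero.1 h3)

/-- The scalars of a twist. -/
theorem gval_twist (h : Setting p M B P f) {m : ℕ} (hm : m ∣ Nat.card G)
    (hmreg : ∀ g : G, IsPRegular p g → orderOf g ∣ m) (k : PConjugate.expo G hm)
    (hk : ∀ v : P, v ≠ 1 → Subgroup.zpowers ((v : G) ^ (k.1 : ZMod (Nat.card G)).val) =
      Subgroup.zpowers (v : G)) (χ : IrrCharacter G) {v : P} (hv : v ≠ 1) :
    gval p P f (twist k.1 χ) v = gval p P f χ (v ^ (k.1 : ZMod (Nat.card G)).val) := by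
  set j := (k.1 : ZMod (Nat.card G)).val
  have hj : v ^ j ≠ 1 := fun e => hv (by
    have h1 := hk v hv
    rw [show (v : G) ^ j = ((v ^ j : P) : G) from rfl, e, OneMemClass.coe_one,
      Subgroup.zpowers_one_eq_bot] at h1
    exact Subtype.ext (Subgroup.zpowers_eq_bot.1 h1.symm))
  rw [gval, if_neg hv, gval, if_neg hj]
  have key : ∀ S S' : Subgroup G, S = S' → eps p P f S * pval p P f S v (twist k.1 χ : G → ℂ) =
      eps p P f S' * pval p P f S' ((v : G) ^ j) (χ : G → ℂ) → eps p P f S * pval p P f S v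
      (twist k.1 χ : G → ℂ) = eps p P f S' * pval p P f S' ((v : G) ^ j) (χ : G → ℂ) :=
    fun _ _ _ e => e
  refine key _ _ (hk v hv).symm ?_
  rw [show ((v ^ j : P) : G) = (v : G) ^ j from rfl, hk v hv]
  congr 1
  rw [pval, pval]
  congr 1
  refine Finset.sum_congr rfl fun s hs => ?_
  rw [PConjugate.twist_apply]
  congr 2
  have hc : Commute (v : G) (s : G) :=
    Subgroup.mem_centralizer_iff.1 s.2 v (Subgroup.mem_zpowers _)
  have h1 : (s : G) ^ j = s := by
    rw [pow_eq_pow_iff_modEq.2 (((PConjugate.mem_expo_iff k.1).1 k.2).of_dvd (hmreg (s : G) (by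
      rw [IsPRegular, Subgroup.orderOf_coe]; exact mem_regSet.1 hs))), pow_one]
  rw [hc.mul_pow, h1]

variable {X Y : Finset (IrrCharacter G)} {r : IrrCharacter G → ℤ} {δ₀ : ℤ}

/-- Constant scalars and the relation on the regular elements leave no proper invariant subfamily of
the exceptional characters. -/
theorem IsSplit.eq_of_const (h : Setting p M B P f) (hs : IsSplit p B P f X Y r δ₀) (hP : P ≠ ⊥)
    {O : Finset (IrrCharacter G)} (hO : O ⊆ Y) (hne : O.Nonempty) {cO cY : ℂ}
    (hcO : ∀ v : P, v ≠ 1 → ∑ θ ∈ O, gval p P f θ v = cO)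
    (hcY : ∀ v : P, v ≠ 1 → ∑ θ ∈ Y, gval p P f θ v = cY) : O = Y := by
  by_contra hOY
  obtain ⟨θ', hθ', hθO⟩ := Finset.exists_of_ssubset (hO.ssubset_of_ne hOY)
  have hδ : (δ₀ : ℂ) ≠ 0 := by rcases hs.sign₀ with e | e <;> simp [e]
  let a : Finset (IrrCharacter G) → IrrCharacter G → ℂ := fun Z η =>
    (if η ∈ Z then (δ₀ : ℂ) else 0) + if η ∈ X then (Z.card : ℂ) * r η else 0
  let q : ℂ → ℕ → ℂ := fun c n => (δ₀ : ℂ) * c - (n : ℂ) * X.card
  set T := B.toFinite.toFinset with hT
  have hXT : X ⊆ T := by rw [hT, ← hs.union]; exact Finset.subset_union_left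
  have hYT : Y ⊆ T := by rw [hT, ← hs.union]; exact Finset.subset_union_right
  have hsum : ∀ Z : Finset (IrrCharacter G), Z ⊆ Y → ∀ F : IrrCharacter G → ℂ,
      ∑ η ∈ T, a Z η * F η = (δ₀ : ℂ) * ∑ η ∈ Z, F η + (Z.card : ℂ) * ∑ η ∈ X, (r η : ℂ) * F η := by
    intro Z hZ F
    simp only [a, add_mul, ite_mul, zero_mul, Finset.sum_add_distrib, Finset.sum_ite_mem,
      Finset.inter_eq_right.2 hXT, Finset.inter_eq_right.2 (hZ.trans hYT), Finset.mul_sum,
      mul_assoc]
  have hgv : ∀ Z : Finset (IrrCharacter G), Z ⊆ Y → ∀ c : ℂ,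
      (∀ v : P, v ≠ 1 → ∑ θ ∈ Z, gval p P f θ v = c) →
      ∀ v : P, v ≠ 1 → ∑ η ∈ T, a Z η * gval p P f η v = q c Z.card := by
    intro Z hZ c hc v hv
    rw [hsum Z hZ, hc v hv, Finset.sum_congr rfl fun η hη => by
      rw [hs.row η hη v hv, show (r η : ℂ) * -(r η : ℂ) = -1 by
        rcases hs.sign η hη with e | e <;> simp [e]]]
    simp only [q, Finset.sum_const, nsmul_eq_mul]
    ring
  have hrg : ∀ Z : Finset (IrrCharacter G), Z ⊆ Y → ∀ g : G, IsPRegular p g →
      ∑ η ∈ T, a Z η * (η : G → ℂ) g = 0 := by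
    intro Z hZ g hg
    rw [hsum Z hZ, Finset.mul_sum]
    have h1 : ∀ θ ∈ Z, (δ₀ : ℂ) * (θ : G → ℂ) g = -∑ η ∈ X, (r η : ℂ) * (η : G → ℂ) g :=
      fun θ hθ => eq_neg_of_add_eq_zero_left (hs.reg_sum θ (hZ hθ) g hg)
    rw [Finset.sum_congr rfl h1, Finset.sum_const, nsmul_eq_mul]
    ring
  have hnB : ∀ Z : Finset (IrrCharacter G), Z ⊆ Y → ∀ η, η ∉ B → a Z η = 0 := by
    intro Z hZ η hη
    have h1 : η ∉ Z := fun e => hη (hs.mem_B (Or.inr (hZ e)))
    have h2 : η ∉ X := fun e => hη (hs.mem_B (Or.inl e))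
    simp [a, h1, h2]
  have hθX : θ' ∉ X := fun e => Finset.disjoint_left.1 hs.disj e hθ'
  have hq : q cO O.card = 0 := by
    have h0 := coeff_eq_zero_of_comb h
      (fun η => q cY Y.card * a O η - q cO O.card * a Y η)
      (fun η hη => by simp [hnB O hO η hη, hnB Y subset_rfl η hη]) (fun v hv => by
        simp only [sub_mul, mul_assoc, Finset.sum_sub_distrib, ← Finset.mul_sum, ← hT,
          hgv O hO cO hcO v hv, hgv Y subset_rfl cY hcY v hv]
        ring) (fun g hg => by
        simp only [sub_mul, mul_assoc, Finset.sum_sub_distrib, ← Finset.mul_sum, ← hT,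
          hrg O hO g hg, hrg Y subset_rfl g hg]
        ring) θ'
    simp only [a, if_neg hθO, if_pos hθ', if_neg hθX, add_zero, mul_zero, zero_sub,
      neg_eq_zero, mul_eq_zero, hδ, or_false] at h0
    exact h0
  obtain ⟨θ, hθ⟩ := hne
  have hθX' : θ ∉ X := fun e => Finset.disjoint_left.1 hs.disj e (hO hθ)
  have h0 := coeff_eq_zero_of_comb h (a O) (hnB O hO)
    (fun v hv => by rw [← hT, hgv O hO cO hcO v hv, hq]) (hrg O hO) θ
  simp only [a, if_pos hθ, if_neg hθX', add_zero] at h0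
  exact hδ h0

end CfsgLib.Blocks.Cyclic
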